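import Mathlib
import Cfsg.Agent.Lib.Helper5.Nse.Defs

/-!
# S4004 arithmetic package [A1] (`PkgArith1`)

Two distinct primes dividing `N` have different numbers of elements of that order.
-/

set_option autoImplicit false

namespace Cfsg.Agent.Lib.Helper29.Nse

open Cfsg.Agent.Lib.Helper5.Nse

variable {N : ℕ} {m : ℕ → ℕ} {a b : ℕ}

theorem N_ne_zero (h : ArithHyp N m a b) : N ≠ 0 := by
  obtain ⟨k, hk⟩ := h.odd
  omega

theorem prime_ge_three (h : ArithHyp N m a b) {l : ℕ} (hl : l.Prime) (hlN : l ∣ N) : 3 ≤ l := by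
  have h2 : l ≠ 2 := by
    rintro rfl
    obtain ⟨k, hk⟩ := h.odd
    omega
  have := hl.two_le
  omega

theorem prime_dvd_one_add (h : ArithHyp N m a b) {l : ℕ} (hl : l.Prime) (hlN : l ∣ N) :
    l ∣ 1 + m l := by
  have h1 := h.frob l hlN
  rw [hl.divisors, Finset.sum_pair hl.one_lt.ne, h.one] at h1
  exact h1

theorem prime_m_ne_zero (h : ArithHyp N m a b) {l : ℕ} (hl : l.Prime) (hlN : l ∣ N) :
    m l ≠ 0 := by
  intro h0
  have h1 := prime_dvd_one_add h hl hlN
  rw [h0, add_zero] at h1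
  exact hl.one_lt.ne' (Nat.dvd_one.mp h1)

theorem mul_primes_ne_one {p q : ℕ} (hp : p.Prime) (hq : q.Prime) : p * q ≠ 1 := by
  intro h
  have h1 := hp.two_le
  have h2 := hq.two_le
  nlinarith

theorem sum_divisors_mul_primes {p q : ℕ} (hp : p.Prime) (hq : q.Prime) (hpq : p ≠ q)
    (f : ℕ → ℕ) : ∑ d ∈ (p * q).divisors, f d = f 1 + f p + f q + f (p * q) := by
  have hdiv : (p * q).divisors = {1, p, q, p * q} := by
    ext d
    simp only [Nat.mem_divisors, Finset.mem_insert, Finset.mem_singleton]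
    constructor
    · rintro ⟨hd, -⟩
      obtain ⟨k₁, k₂, h1, h2, rfl⟩ := (Nat.dvd_mul).mp hd
      rcases (Nat.dvd_prime hp).mp h1 with h1 | h1 <;>
        rcases (Nat.dvd_prime hq).mp h2 with h2 | h2 <;> rw [h1, h2] <;> simp
    · have hne : p * q ≠ 0 := mul_ne_zero hp.ne_zero hq.ne_zero
      rintro (h | h | h | h)
      · rw [h]; exact ⟨one_dvd _, hne⟩
      · rw [h]; exact ⟨dvd_mul_right _ _, hne⟩
      · rw [h]; exact ⟨dvd_mul_left _ _, hne⟩
      · rw [h]; exact ⟨dvd_rfl, hne⟩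
  rw [hdiv]
  have h1p : 1 ≠ p := hp.one_lt.ne
  have h1q : 1 ≠ q := hq.one_lt.ne
  have hppq : p ≠ p * q := by
    intro h
    have h2 : p * 1 = p * q := by rw [mul_one]; exact h
    exact h1q (Nat.eq_of_mul_eq_mul_left hp.pos h2)
  have hqpq : q ≠ p * q := by
    intro h
    have h2 : 1 * q = p * q := by rw [one_mul]; exact h
    exact h1p (Nat.eq_of_mul_eq_mul_right hq.pos h2)
  have h1pq : 1 ≠ p * q := fun h => mul_primes_ne_one hp hq h.symm
  rw [Finset.sum_insert (by
      rw [Finset.mem_insert, Finset.mem_insert, Finset.mem_singleton]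
      rintro (h | h | h)
      exacts [h1p h, h1q h, h1pq h]),
    Finset.sum_insert (by
      rw [Finset.mem_insert, Finset.mem_singleton]
      rintro (h | h)
      exacts [hpq h, hppq h]),
    Finset.sum_pair hqpq]
  ring

theorem int_dvd_lin {l x y z : ℤ} (α β : ℤ) (hx : l ∣ x) (hy : l ∣ y)
    (hz : z = α * x + β * y) : l ∣ z := by
  rw [hz]
  exact dvd_add (hx.mul_left α) (hy.mul_left β)

theorem int_dvd_lin3 {l x y w z : ℤ} (α β γ : ℤ) (hx : l ∣ x) (hy : l ∣ y) (hw : l ∣ w)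
    (hz : z = α * x + β * y + γ * w) : l ∣ z := by
  rw [hz]
  exact dvd_add (dvd_add (hx.mul_left α) (hy.mul_left β)) (hw.mul_left γ)

theorem int_not_dvd_small {l : ℕ} (hl : 3 ≤ l) {z : ℤ} (hz0 : z ≠ 0) (hz : |z| ≤ 2) :
    ¬ (l : ℤ) ∣ z := by
  intro hd
  have h1 : (l : ℤ) ≤ |z| := Int.le_of_dvd (abs_pos.mpr hz0) ((dvd_abs _ _).mpr hd)
  have h2 : (3 : ℤ) ≤ l := by exact_mod_cast hl
  linarith

theorem mod_eq_one_of_int_dvd {l c : ℕ} (hl : 3 ≤ l) (hd : (l : ℤ) ∣ (c : ℤ) - 1) :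
    c % l = 1 := by
  have h : 1 ≡ c [MOD l] := (Nat.modEq_iff_dvd).mpr (by simpa using hd)
  have h' : 1 % l = c % l := h
  rw [← h', Nat.mod_eq_of_lt (by omega)]

/-- **[A1]** -/
theorem pkgArith1 : PkgArith1 := by
  intro N m a b h p q hp hq hpq hpN hqN hmpq
  obtain ⟨c, hcp⟩ : ∃ c, m p = c := ⟨_, rfl⟩
  have hcq : m q = c := by rw [← hmpq]; exact hcp
  have hc0 : c ≠ 0 := by rw [← hcp]; exact prime_m_ne_zero h hp hpN
  have hp3 := prime_ge_three h hp hpN
  have hN0 := N_ne_zero h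
  obtain ⟨c', hvals⟩ : ∃ c' : ℕ, ∀ n, n ≠ 1 → m n = 0 ∨ m n = c ∨ m n = c' := by
    rcases h.vals p hp.ne_one with h0 | h0 | h0
    · exact absurd (hcp.symm.trans h0) hc0
    · refine ⟨b, fun n hn => ?_⟩
      rcases h.vals n hn with h1 | h1 | h1
      · exact Or.inl h1
      · exact Or.inr (Or.inl (h1.trans (h0.symm.trans hcp)))
      · exact Or.inr (Or.inr h1)
    · refine ⟨a, fun n hn => ?_⟩
      rcases h.vals n hn with h1 | h1 | h1
      · exact Or.inl h1
      · exact Or.inr (Or.inr h1)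
      · exact Or.inr (Or.inl (h1.trans (h0.symm.trans hcp)))
  -- the pair lemma
  have pair : ∀ p' q', p'.Prime → q'.Prime → p' ≠ q' → p' ∣ N → q' ∣ N → m p' = c → m q' = c →
      m (p' * q') = c' ∧ (p' : ℤ) ∣ (c' : ℤ) - 1 ∧ (q' : ℤ) ∣ (c' : ℤ) - 1 := by
    intro p' q' hp' hq' hne hp'N hq'N hmp' hmq'
    have hpqN : p' * q' ∣ N :=
      Nat.Coprime.mul_dvd_of_dvd_of_dvd ((Nat.coprime_primes hp' hq').mpr hne) hp'N hq'N
    have hfr := h.frob _ hpqN
    rw [sum_divisors_mul_primes hp' hq' hne, h.one, hmp', hmq'] at hfr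
    have h1p := prime_dvd_one_add h hp' hp'N
    rw [hmp'] at h1p
    have h1q := prime_dvd_one_add h hq' hq'N
    rw [hmq'] at h1q
    have h3p := prime_ge_three h hp' hp'N
    have h3q := prime_ge_three h hq' hq'N
    have hM := hvals (p' * q') (mul_primes_ne_one hp' hq')
    generalize m (p' * q') = M at hfr hM ⊢
    have e1 : (p' : ℤ) ∣ 1 + (c : ℤ) + c + M := by
      exact_mod_cast (dvd_mul_right p' q').trans hfr
    have e2 : (p' : ℤ) ∣ 1 + (c : ℤ) := by exact_mod_cast h1p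
    have e3 : (p' : ℤ) ∣ (M : ℤ) - 1 := int_dvd_lin 1 (-2) e1 e2 (by ring)
    have f1 : (q' : ℤ) ∣ 1 + (c : ℤ) + c + M := by
      exact_mod_cast (dvd_mul_left q' p').trans hfr
    have f2 : (q' : ℤ) ∣ 1 + (c : ℤ) := by exact_mod_cast h1q
    have f3 : (q' : ℤ) ∣ (M : ℤ) - 1 := int_dvd_lin 1 (-2) f1 f2 (by ring)
    have hMc' : M = c' := by
      rcases hM with h0 | h0 | h0
      · exfalso
        rw [h0] at e3
        exact int_not_dvd_small h3p (by norm_num) (by norm_num) e3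
      · exfalso
        rw [h0] at e1
        have h4 : (p' : ℤ) ∣ -2 := int_dvd_lin 1 (-3) e1 e2 (by ring)
        exact int_not_dvd_small h3p (by norm_num) (by norm_num) h4
      · exact h0
    rw [hMc'] at e3 f3
    exact ⟨hMc', e3, f3⟩
  obtain ⟨hMpq, hp1, hq1⟩ := pair p q hp hq hpq hpN hqN hcp hcq
  have e2p : (p : ℤ) ∣ 1 + (c : ℤ) := by
    have h1 := prime_dvd_one_add h hp hpN
    rw [hcp] at h1
    exact_mod_cast h1
  -- every prime has `m r = c`
  have all_c : ∀ r, r.Prime → r ∣ N → m r = c := by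
    intro r hr hrN
    by_contra hmr
    have hrp : p ≠ r := by
      rintro rfl
      exact hmr hcp
    have hr0 := prime_m_ne_zero h hr hrN
    have hr3 := prime_ge_three h hr hrN
    have hmr' : m r = c' := by
      rcases hvals r hr.ne_one with h0 | h0 | h0
      · exact absurd h0 hr0
      · exact absurd h0 hmr
      · exact h0
    have hfp := h.fp p r hp hr hrp (by omega)
      (by rw [hmr']; exact mod_eq_one_of_int_dvd hp3 hp1)
    rw [hcp] at hfp
    have hMr : m (p * r) = c' := by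
      rcases hvals (p * r) (mul_primes_ne_one hp hr) with h0 | h0 | h0
      · omega
      · omega
      · exact h0
    have hprN : p * r ∣ N :=
      Nat.Coprime.mul_dvd_of_dvd_of_dvd ((Nat.coprime_primes hp hr).mpr hrp) hpN hrN
    have hfr := h.frob _ hprN
    rw [sum_divisors_mul_primes hp hr hrp, h.one, hcp, hmr', hMr] at hfr
    have e1 : (p : ℤ) ∣ 1 + (c : ℤ) + c' + c' := by
      exact_mod_cast (dvd_mul_right p r).trans hfr
    have h4 : (p : ℤ) ∣ 2 := int_dvd_lin3 1 (-1) (-2) e1 e2p hp1 (by ring)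
    exact int_not_dvd_small hp3 (by norm_num) (by norm_num) h4
  have hl1 : ∀ l, l.Prime → l ∣ N → (l : ℤ) ∣ (c' : ℤ) - 1 := by
    intro l hl hlN
    by_cases hlp : l = p
    · rw [hlp]; exact hp1
    · exact (pair l p hl hp hlp hlN hpN (all_c l hl hlN) hcp).2.1
  have hsq : ∀ l, l.Prime → l ∣ N → m (l ^ 2) = 0 := by
    intro l hl hlN
    by_contra hne
    have hl3 := prime_ge_three h hl hlN
    have hfr := h.frob _ (h.dvd _ hne)
    rw [Nat.sum_divisors_prime_pow hl, Finset.sum_range_succ, Finset.sum_range_succ,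
      Finset.sum_range_one, pow_zero, pow_one, h.one, all_c l hl hlN] at hfr
    have e2 : (l : ℤ) ∣ 1 + (c : ℤ) := by
      have h1 := prime_dvd_one_add h hl hlN
      rw [all_c l hl hlN] at h1
      exact_mod_cast h1
    have hM := hvals (l ^ 2) (Nat.one_lt_pow two_ne_zero hl.one_lt).ne'
    generalize m (l ^ 2) = M at hfr hM hne
    have e1 : (l : ℤ) ∣ 1 + (c : ℤ) + M := by
      exact_mod_cast (dvd_pow_self l two_ne_zero).trans hfr
    rcases hM with h0 | h0 | h0
    · exact hne h0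
    · rw [h0] at e1
      have h4 : (l : ℤ) ∣ -1 := int_dvd_lin 1 (-2) e1 e2 (by ring)
      exact int_not_dvd_small hl3 (by norm_num) (by norm_num) h4
    · rw [h0] at e1
      have h4 : (l : ℤ) ∣ 1 := int_dvd_lin3 1 (-1) (-1) e1 e2 (hl1 l hl hlN) (by ring)
      exact int_not_dvd_small hl3 (by norm_num) (by norm_num) h4
  have hpp : ∀ l, l.Prime → l ∣ N → l ^ N.factorization l ∣ 1 + c := by
    intro l hl hlN
    have hpow : ∀ i, 2 ≤ i → m (l ^ i) = 0 := by
      intro i hi
      by_contra hne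
      exact h.pow (l ^ i) (l ^ 2) (pow_dvd_pow l hi) hne (hsq l hl hlN)
    have hsum : ∀ k, 1 ≤ k → ∑ i ∈ Finset.range (k + 1), m (l ^ i) = 1 + c := by
      intro k hk
      induction k, hk using Nat.le_induction with
      | base =>
        rw [Finset.sum_range_succ, Finset.sum_range_one, pow_zero, pow_one, h.one,
          all_c l hl hlN]
      | succ k hk ih =>
        rw [Finset.sum_range_succ, ih, hpow (k + 1) (by omega), add_zero]
    have hfr := h.frob _ (Nat.ordProj_dvd N l)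
    rw [Nat.sum_divisors_prime_pow hl, hsum _ (hl.factorization_pos_of_dvd hN0 hlN)] at hfr
    exact hfr
  have hNdvd : N ∣ 1 + c := by
    rw [← Nat.factorization_prime_le_iff_dvd hN0 (by omega)]
    intro l hl
    by_cases hlN : l ∣ N
    · exact (hl.pow_dvd_iff_le_factorization (by omega)).mp (hpp l hl hlN)
    · rw [Nat.factorization_eq_zero_of_not_dvd hlN]
      exact Nat.zero_le _
  have hle := Nat.le_of_dvd (by omega) hNdvd
  have hle2 := h.le (p * q) (mul_ne_zero hp.ne_zero hq.ne_zero)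
  rw [sum_divisors_mul_primes hp hq hpq, h.one, hcp, hcq] at hle2
  omega

end Cfsg.Agent.Lib.Helper29.Nse
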