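import Mathlib
import Cfsg.Agent.Lib.Helper5.Nse.Defs
import Cfsg.Agent.Lib.Helper29.Nse.Arith1

/-!
# S4004 arithmetic package [A2] (`PkgArith2`)

Given [A1]'s conclusion: at most two primes divide `N`, and if `p ≠ q` both do, every element
order is `1`, `p` or `q`.
-/

set_option autoImplicit false

namespace Cfsg.Agent.Lib.Helper29.Nse

open Cfsg.Agent.Lib.Helper5.Nse

variable {N : ℕ} {m : ℕ → ℕ} {a b : ℕ}

theorem m_sq_eq_zero (h : ArithHyp N m a b) {p q : ℕ} (hp : p.Prime) (hq : q.Prime)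
    (hpq : p ≠ q) (hpN : p ∣ N) (hqN : q ∣ N)
    (hvals : ∀ n, n ≠ 1 → m n = 0 ∨ m n = m p ∨ m n = m q) (hi : m (p * q) = 0) :
    m (p ^ 2) = 0 := by
  by_contra hne
  have hp3 := prime_ge_three h hp hpN
  have hq3 := prime_ge_three h hq hqN
  have hfr := h.frob _ (h.dvd _ hne)
  rw [Nat.sum_divisors_prime_pow hp, Finset.sum_range_succ, Finset.sum_range_succ,
    Finset.sum_range_one, pow_zero, pow_one, h.one] at hfr
  have e1 : (p : ℤ) ∣ 1 + (m p : ℤ) + m (p ^ 2) := by
    exact_mod_cast (dvd_pow_self p two_ne_zero).trans hfr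
  have e1p : (p : ℤ) ∣ 1 + (m p : ℤ) := by exact_mod_cast prime_dvd_one_add h hp hpN
  have e1q : (q : ℤ) ∣ 1 + (m q : ℤ) := by exact_mod_cast prime_dvd_one_add h hq hqN
  have e2 : (p : ℤ) ∣ (m (p ^ 2) : ℤ) := int_dvd_lin 1 (-1) e1 e1p (by ring)
  rcases hvals (p ^ 2) (Nat.one_lt_pow two_ne_zero hp.one_lt).ne' with e | e | e
  · exact hne e
  · rw [e] at e2
    have h4 : (p : ℤ) ∣ 1 := int_dvd_lin 1 (-1) e1p e2 (by ring)
    exact int_not_dvd_small hp3 (by norm_num) (by norm_num) h4
  · have hfree := h.free p q hp hq hpq hpN hqN hi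
    rw [e] at hfree
    have f2 : (q : ℤ) ∣ (m q : ℤ) := by exact_mod_cast hfree
    have h4 : (q : ℤ) ∣ 1 := int_dvd_lin 1 (-1) e1q f2 (by ring)
    exact int_not_dvd_small hq3 (by norm_num) (by norm_num) h4

/-- **[A2]** -/
theorem pkgArith2 : PkgArith2 := by
  intro N m a b h hne
  have three : ∀ p q r, p.Prime → q.Prime → r.Prime → p ∣ N → q ∣ N → r ∣ N →
      p ≠ q → p ≠ r → q ≠ r → False := by
    intro p q r hp hq hr hpN hqN hrN hpq hpr hqr
    have h1 := hne p q hp hq hpq hpN hqN
    have h2 := hne p r hp hr hpr hpN hrN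
    have h3 := hne q r hq hr hqr hqN hrN
    have hp0 := prime_m_ne_zero h hp hpN
    have hq0 := prime_m_ne_zero h hq hqN
    have hr0 := prime_m_ne_zero h hr hrN
    rcases h.vals p hp.ne_one with e1 | e1 | e1 <;>
      rcases h.vals q hq.ne_one with e2 | e2 | e2 <;>
      rcases h.vals r hr.ne_one with e3 | e3 | e3 <;> omega
  refine ⟨?_, ?_⟩
  · by_contra hcard
    rw [not_le] at hcard
    obtain ⟨p, hp, q, hq, r, hr, hpq, hpr, hqr⟩ := Finset.two_lt_card.mp hcard
    exact three p q r (Nat.prime_of_mem_primeFactors hp) (Nat.prime_of_mem_primeFactors hq)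
      (Nat.prime_of_mem_primeFactors hr) (Nat.dvd_of_mem_primeFactors hp)
      (Nat.dvd_of_mem_primeFactors hq) (Nat.dvd_of_mem_primeFactors hr) hpq hpr hqr
  · intro p q hp hq hpq hpN hqN
    have hp3 := prime_ge_three h hp hpN
    have hq3 := prime_ge_three h hq hqN
    have hp0 := prime_m_ne_zero h hp hpN
    have hq0 := prime_m_ne_zero h hq hqN
    have hαβ := hne p q hp hq hpq hpN hqN
    have hvals : ∀ n, n ≠ 1 → m n = 0 ∨ m n = m p ∨ m n = m q := by
      intro n hn
      rcases h.vals p hp.ne_one with e1 | e1 | e1 <;>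
        rcases h.vals q hq.ne_one with e2 | e2 | e2 <;>
        rcases h.vals n hn with e3 | e3 | e3 <;> omega
    have e1p : (p : ℤ) ∣ 1 + (m p : ℤ) := by exact_mod_cast prime_dvd_one_add h hp hpN
    have e1q : (q : ℤ) ∣ 1 + (m q : ℤ) := by exact_mod_cast prime_dvd_one_add h hq hqN
    have hpqN : p * q ∣ N :=
      Nat.Coprime.mul_dvd_of_dvd_of_dvd ((Nat.coprime_primes hp hq).mpr hpq) hpN hqN
    have hi : m (p * q) = 0 := by
      by_contra hM
      have hfr := h.frob _ hpqN
      rw [sum_divisors_mul_primes hp hq hpq, h.one] at hfr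
      rcases hvals (p * q) (mul_primes_ne_one hp hq) with e | e | e
      · exact hM e
      · rw [e] at hfr
        have e1 : (p : ℤ) ∣ 1 + (m p : ℤ) + m q + m p := by
          exact_mod_cast (dvd_mul_right p q).trans hfr
        have e3 : (p : ℤ) ∣ (m q : ℤ) - 1 := int_dvd_lin 1 (-2) e1 e1p (by ring)
        have hfp := h.fp p q hp hq hpq (by omega) (mod_eq_one_of_int_dvd hp3 e3)
        rw [e] at hfp
        omega
      · rw [e] at hfr
        have e1 : (q : ℤ) ∣ 1 + (m p : ℤ) + m q + m q := by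
          exact_mod_cast (dvd_mul_left q p).trans hfr
        have e3 : (q : ℤ) ∣ (m p : ℤ) - 1 := int_dvd_lin 1 (-2) e1 e1q (by ring)
        have hfp := h.fp q p hq hp (Ne.symm hpq) (by omega) (mod_eq_one_of_int_dvd hq3 e3)
        rw [mul_comm q p, e] at hfp
        omega
    have hsqp := m_sq_eq_zero h hp hq hpq hpN hqN hvals hi
    have hsqq := m_sq_eq_zero h hq hp (Ne.symm hpq) hqN hpN
      (fun n hn => by
        rcases hvals n hn with e | e | e
        exacts [Or.inl e, Or.inr (Or.inr e), Or.inr (Or.inl e)])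
      (by rw [mul_comm]; exact hi)
    intro n hn
    have hnN := h.dvd n hn
    have hprime : ∀ l, l.Prime → l ∣ n → l = p ∨ l = q := by
      intro l hl hln
      by_contra hcon
      rw [not_or] at hcon
      exact three l p q hl hp hq (hln.trans hnN) hpN hqN hcon.1 hcon.2 hpq
    have hnpp : ¬ p ^ 2 ∣ n := fun hd => h.pow n _ hd hn hsqp
    have hnqq : ¬ q ^ 2 ∣ n := fun hd => h.pow n _ hd hn hsqq
    have hnpq : ¬ p * q ∣ n := fun hd => h.pow n _ hd hn hi
    by_cases hn1 : n = 1
    · exact Or.inl hn1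
    · right
      obtain ⟨l, hl, hln⟩ := Nat.exists_prime_and_dvd hn1
      obtain ⟨k, hk⟩ := hln
      by_cases hk1 : k = 1
      · rw [hk1, mul_one] at hk
        rw [hk]
        exact hprime l hl (by rw [hk])
      · exfalso
        obtain ⟨l', hl', hlk⟩ := Nat.exists_prime_and_dvd hk1
        have hll' : l * l' ∣ n := by
          rw [hk]
          exact mul_dvd_mul_left l hlk
        have hln : l ∣ n := by rw [hk]; exact dvd_mul_right l k
        have hl'n : l' ∣ n := by rw [hk]; exact hlk.trans (dvd_mul_left k l)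
        rcases hprime l hl hln with e | e <;> rcases hprime l' hl' hl'n with e' | e' <;>
          rw [e, e'] at hll'
        · exact hnpp (by rw [pow_two]; exact hll')
        · exact hnpq hll'
        · exact hnpq (by rw [mul_comm]; exact hll')
        · exact hnqq (by rw [pow_two]; exact hll')

end Cfsg.Agent.Lib.Helper29.Nse
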